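import Cfsg.Agent.Lib.Helper5.SU3.Model
import Cfsg.Agent.Lib.Helper5.SUAsch.Defs2
import Cfsg.Agent.Lib.Helper5.SUAsch.Bridge
import Cfsg.Agent.Lib.Helper5.SU3.Mono

set_option autoImplicit false

/-! Piece F3 of the farm su3 (helper5) for S5778: transfer from the model field. -/

namespace Cfsg.Agent.Lib.Helper17.SU3

open Cfsg Cfsg.Geo Matrix Cfsg.Agent.Lib.Helper5.SUAsch Cfsg.Agent.Lib.Helper5.SU3
open scoped MatrixGroups

variable {F : Type*} [Field F] [Fintype F]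

instance fact_prime_five' : Fact (Nat.Prime 5) := ⟨by norm_num⟩

noncomputable def eK25 (hF : Fintype.card F = 5 ^ 2) : K25 ≃+* F :=
  FiniteField.ringEquivOfCardEq (by rw [card_K25, hF]; norm_num)

/-- F3a -/
theorem five_eq_zero (hF : Fintype.card F = 5 ^ 2) : (5 : F) = 0 := by
  have := congrArg (eK25 hF) five_K25
  rwa [map_ofNat, map_zero] at this

/-- F3b -/
theorem exists_t (hF : Fintype.card F = 5 ^ 2) : ∃ t : F, t ^ 2 = 2 := by
  obtain ⟨t, ht⟩ := exists_t_K25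
  refine ⟨eK25 hF t, ?_⟩
  rw [← map_pow, ht, map_ofNat]

theorem cndM_map {R S : Type*} [CommRing R] [CommRing S] (φ : R →+* S)
    (hφ : Function.Injective φ) (a b c : R) : cndM (φ a) (φ b) (φ c) ↔ cndM a b c := by
  have key : ∀ x y : R, φ x = φ y ↔ x = y := fun x y => hφ.eq_iff
  unfold cndM nrm
  simp only [← map_pow, ← map_mul, ← map_add]
  rw [← map_one φ, ← map_zero φ, ← map_ofNat φ 2, ← map_ofNat φ 4]
  simp only [key, ne_eq]

theorem cndQ_map {R S : Type*} [CommRing R] [CommRing S] (φ : R →+* S)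
    (hφ : Function.Injective φ) (a b c : R) : cndQ (φ a) (φ b) (φ c) ↔ cndQ a b c := by
  have key : ∀ x y : R, φ x = φ y ↔ x = y := fun x y => hφ.eq_iff
  unfold cndQ nrm
  simp only [← map_pow, ← map_mul, ← map_add]
  rw [← map_one φ, ← map_zero φ, ← map_ofNat φ 2, ← map_ofNat φ 4]
  simp only [key]

/-- F3c -/
theorem cndM_iff_cndQ (hF : Fintype.card F = 5 ^ 2) (a b c : F) : cndM a b c ↔ cndQ a b c := by
  let e : K25 ≃+* F := eK25 hF
  let φ : K25 →+* F := e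
  have hφ : Function.Injective φ := e.injective
  obtain ⟨a, rfl⟩ : ∃ a₀, φ a₀ = a := ⟨e.symm a, by simp [φ]⟩
  obtain ⟨b, rfl⟩ : ∃ a₀, φ a₀ = b := ⟨e.symm b, by simp [φ]⟩
  obtain ⟨c, rfl⟩ : ∃ a₀, φ a₀ = c := ⟨e.symm c, by simp [φ]⟩
  rw [cndM_map φ hφ, cndQ_map φ hφ]
  exact cndM_iff_cndQ_model a b c

end Cfsg.Agent.Lib.Helper17.SU3
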