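import Cfsg.Agent.Lib.Helper17.SU3.F3

set_option autoImplicit false

/-! Piece F4 of the farm su3 (helper5) for S5778: a transvection outside `M0`. -/

namespace Cfsg.Agent.Lib.Helper17.SU3

open Cfsg Cfsg.Geo Matrix Cfsg.Agent.Lib.Helper5.SUAsch Cfsg.Agent.Lib.Helper5.SU3
open scoped MatrixGroups

variable {F : Type*} [Field F] [Fintype F]

/-- F4 -/
theorem exists_not_mem_M0 (hF : Fintype.card F = 5 ^ 2) : ∃ s ∈ SUg 3 F 5, s ∉ M0 F := by
  have h5 : (5 : F) = 0 := five_eq_zero hF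
  obtain ⟨t, ht⟩ := exists_t hF
  have h12 : (1 : F) ≠ 2 := by
    intro h
    have : (1 : F) = 0 := by linear_combination (-1 : F) * h
    exact one_ne_zero this
  have h02 : (0 : F) ≠ 2 := by
    intro h
    have : (1 : F) = 0 := by linear_combination h5 + 2 * h
    exact one_ne_zero this
  have h04 : (0 : F) ≠ 4 := by
    intro h
    have : (1 : F) = 0 := by linear_combination h5 + h
    exact one_ne_zero this
  have hc : t + t ^ 5 = 0 := by
    have : t ^ 5 = t * (t ^ 2) ^ 2 := by ring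
    rw [this, ht]
    linear_combination t * h5
  have hr : hermForm 3 F 5 ![1, 2, 0] ![1, 2, 0] = 0 := by
    simp [hermForm, Fin.sum_univ_three]
    linear_combination 13 * h5
  obtain ⟨τ, hτSU, hτ⟩ := exists_tv hF ![1, 2, 0] t hr hc
  refine ⟨τ, hτSU, fun hM => ?_⟩
  have h1 : cndV (![1, 0, 0] : Fin 3 → F) := by
    refine ⟨by simp [nrm], Or.inr (Or.inr ⟨by simp, ?_, ?_, ?_⟩)⟩
    · simpa using h12
    · simpa using h02
    · simpa using h02
  have h2 := (hM _).mpr h1
  have h4 : (τ : Matrix (Fin 3) (Fin 3) F) *ᵥ ![1, 0, 0] = ![1 + t, 2 * t, 0] := by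
    rw [hτ]
    have : hermForm 3 F 5 ![1, 0, 0] ![1, 2, 0] = 1 := by
      simp [hermForm, Fin.sum_univ_three]
    rw [this, mul_one]
    ext i
    fin_cases i <;> simp [mul_comm]
  rw [h4] at h2
  obtain ⟨-, h | h | ⟨-, -, h, -⟩⟩ := h2
  · apply h02
    simpa using h
  · apply h04
    simpa using h
  · apply h
    have : ((![1 + t, 2 * t, 0] : Fin 3 → F) 1) = 2 * t := rfl
    rw [this]
    have : (2 * t) ^ 6 = 64 * (t ^ 2) ^ 3 := by ring
    rw [this, ht]
    linear_combination 102 * h5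

end Cfsg.Agent.Lib.Helper17.SU3
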