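import Cfsg.Agent.Lib.Helper17.SU3.F3

set_option autoImplicit false

/-! Piece S4 of the farm su3 (helper5) for S5778: a diagonal element of `M0` outside the subfield
subgroup. -/

namespace Cfsg.Agent.Lib.Helper17.SU3

open Cfsg Cfsg.Geo Matrix Cfsg.Agent.Lib.Helper5.SUAsch Cfsg.Agent.Lib.Helper5.SU3
open scoped MatrixGroups

variable {F : Type*} [Field F] [Fintype F]

theorem pow_five_of_mem (hF : Fintype.card F = 5 ^ 2) (F₀ : Subfield F)
    (hc : Fintype.card F = Nat.card F₀ ^ 2) {y : F} (hy : y ∈ F₀) : y ^ 5 = y := by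
  classical
  have h3 : Nat.card F₀ = 5 := by
    rw [hF] at hc
    exact (Nat.pow_left_injective (n := 2) (by norm_num) hc).symm
  have hpow : (⟨y, hy⟩ : F₀) ^ 5 = ⟨y, hy⟩ := by
    have := FiniteField.pow_card (⟨y, hy⟩ : F₀)
    rwa [← Nat.card_eq_fintype_card, h3] at this
  have := congrArg (Subtype.val) hpow
  simpa using this

/-- S4 -/
theorem exists_diag (hF : Fintype.card F = 5 ^ 2) (F₀ : Subfield F)
    (hc : Fintype.card F = Nat.card F₀ ^ 2) :
    ∃ e ∈ SUg 3 F 5, e ∈ M0 F ∧ e ∉ subfieldSubgroup F₀ (1 : GL (Fin 3) F) := by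
  have h5 : (5 : F) = 0 := five_eq_zero hF
  obtain ⟨t, ht⟩ := exists_t hF
  obtain ⟨ω, hω⟩ : ∃ ω : F, ω = 2 + 2 * t := ⟨_, rfl⟩
  have h1 : ω ^ 2 + ω + 1 = 0 := by
    rw [hω]
    linear_combination 4 * ht + (3 + 2 * t) * h5
  have h3 : ω ^ 3 = 1 := by linear_combination (ω - 1) * h1
  have hne : ω ≠ 1 := by
    intro h
    rw [h] at h1
    have : (1 : F) = 0 := by linear_combination 2 * h1 - h5
    exact one_ne_zero this
  have h6 : ω ^ 6 = 1 := by
    have : ω ^ 6 = (ω ^ 3) ^ 2 := by ring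
    rw [this, h3, one_pow]
  have hdet : (Matrix.diagonal ![ω, ω ^ 2, 1] : Matrix (Fin 3) (Fin 3) F).det = 1 := by
    rw [Matrix.det_diagonal, Fin.prod_univ_three]
    simp only [Matrix.cons_val_zero, Matrix.cons_val_one, Matrix.cons_val]
    linear_combination h3
  let e : GL (Fin 3) F := Matrix.GeneralLinearGroup.mkOfDetNeZero (Matrix.diagonal ![ω, ω ^ 2, 1])
    (by rw [hdet]; exact one_ne_zero)
  have he : (e : Matrix (Fin 3) (Fin 3) F) = Matrix.diagonal ![ω, ω ^ 2, 1] := rfl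
  have hv : ∀ w : Fin 3 → F, (e : Matrix (Fin 3) (Fin 3) F) *ᵥ w = ![ω * w 0, ω ^ 2 * w 1, w 2] := by
    intro w
    rw [he]
    ext i
    rw [Matrix.mulVec_diagonal]
    fin_cases i <;> simp
  refine ⟨e, ?_, ?_, ?_⟩
  · rw [mem_SUg_iff]
    refine ⟨fun u v => ?_, by rw [he, hdet]⟩
    rw [hv, hv]
    simp only [hermForm, Fin.sum_univ_three, Matrix.cons_val_zero, Matrix.cons_val_one,
      Matrix.cons_val]
    have e1 : ω * u 0 * (ω * v 0) ^ 5 = u 0 * v 0 ^ 5 := by
      linear_combination (u 0 * v 0 ^ 5) * h6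
    have e2 : ω ^ 2 * u 1 * (ω ^ 2 * v 1) ^ 5 = u 1 * v 1 ^ 5 := by
      linear_combination (u 1 * v 1 ^ 5) * (ω ^ 6 + 1) * h6
    rw [e1, e2]
  · intro w
    rw [hv]
    unfold cndV
    simp only [Matrix.cons_val_zero, Matrix.cons_val_one, Matrix.cons_val]
    have hA : (ω * w 0) ^ 6 = w 0 ^ 6 := by linear_combination (w 0 ^ 6) * h6
    have hB : (ω ^ 2 * w 1) ^ 6 = w 1 ^ 6 := by linear_combination (w 1 ^ 6) * (ω ^ 6 + 1) * h6
    have hP : ω * w 0 * (ω ^ 2 * w 1) * w 2 = w 0 * w 1 * w 2 := by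
      linear_combination (w 0 * w 1 * w 2) * h3
    unfold cndM nrm
    rw [hA, hB, hP]
  · intro hmem
    obtain ⟨y, hy, hye⟩ := hmem
    have hye' : y = e := by
      rw [← hye]
      simp
    subst hye'
    obtain ⟨a, ha, z, hz, haz⟩ := Subgroup.mem_sup_of_normal_right.1 hy
    obtain ⟨m, rfl⟩ := ha
    rw [mem_scalars_iff] at hz
    obtain ⟨c, hcz⟩ := hz
    have hent : ∀ i j, (e : Matrix (Fin 3) (Fin 3) F) i j = ((m : Matrix (Fin 3) (Fin 3) F₀) i j : F) * c := by
      intro i j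
      rw [← haz, Units.val_mul, hcz]
      simp [mul_comm]
    have h22 := hent 2 2
    have h00 := hent 0 0
    rw [he] at h22 h00
    simp at h22 h00
    have hcm : (c : F) ∈ F₀ := by
      have : (c : F) = (((m : Matrix (Fin 3) (Fin 3) F₀) 2 2 : F₀) : F)⁻¹ := by
        apply eq_inv_of_mul_eq_one_right
        exact h22.symm
      rw [this]
      exact F₀.inv_mem (Subtype.mem _)
    have hωm : ω ∈ F₀ := by
      rw [h00]
      exact F₀.mul_mem (Subtype.mem _) hcm
    have h55 := pow_five_of_mem hF F₀ hc hωm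
    have hω0 : ω ≠ 0 := by
      rintro rfl
      simp at h3
    apply hne
    have : ω * (ω - 1) = 0 := by linear_combination h55 - ω ^ 2 * h3
    rcases mul_eq_zero.mp this with h | h
    · exact absurd h hω0
    · linear_combination h

end Cfsg.Agent.Lib.Helper17.SU3
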